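import Mathlib

/-!
# A strengthening of Bertrand's postulate: two primes in `(m, 2m]` for `m ≥ 6`

The proof follows Mathlib's proof of Bertrand's postulate, with one extra factor `2 * m`.
-/

set_option autoImplicit false

namespace Cfsg.Agent.Lib.Basic.TwoPrimes

open Real

/-- Real form of the inequality contradicting the existence of at most one prime. -/
theorem real_main_inequality' {x : ℝ} (x_large : (512 : ℝ) ≤ x) :
    x * ((2 * x) * (2 * x) ^ √(2 * x)) * 4 ^ (2 * x / 3) ≤ 4 ^ x := by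
  let f : ℝ → ℝ := fun x => (log x + log (2 * x)) + √(2 * x) * log (2 * x) - log 4 / 3 * x
  have hf' : ∀ x, 0 < x → 0 < x * ((2 * x) * (2 * x) ^ √(2 * x)) / 4 ^ (x / 3) := fun x h =>
    div_pos (mul_pos h (mul_pos (mul_pos two_pos h) (rpow_pos_of_pos (mul_pos two_pos h) _)))
      (rpow_pos_of_pos four_pos _)
  have hf : ∀ x, 0 < x → f x = log (x * ((2 * x) * (2 * x) ^ √(2 * x)) / 4 ^ (x / 3)) := by
    intro x h5
    have h6 := mul_pos (zero_lt_two' ℝ) h5
    have h7 := rpow_pos_of_pos h6 (√(2 * x))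
    rw [log_div (mul_pos h5 (mul_pos h6 h7)).ne' (rpow_pos_of_pos four_pos _).ne', log_mul h5.ne'
      (mul_pos h6 h7).ne', log_mul h6.ne' h7.ne',
      log_rpow h6, log_rpow zero_lt_four, ← mul_div_right_comm, ← mul_div, mul_comm x]
    ring
  have h5 : 0 < x := lt_of_lt_of_le (by norm_num1) x_large
  rw [← div_le_one (rpow_pos_of_pos four_pos x), ← div_div_eq_mul_div, ← rpow_sub four_pos, ←
    mul_div 2 x, mul_div_left_comm, ← mul_one_sub, (by norm_num1 : (1 : ℝ) - 2 / 3 = 1 / 3),
    mul_one_div, ← log_nonpos_iff (hf' x h5).le, ← hf x h5]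
  have hlog2 : ConcaveOn ℝ (Set.Ioi (0.5 : ℝ)) (fun x => log (2 * x)) := by
    have h0 : ConcaveOn ℝ (Set.Ioi (0.5 : ℝ)) (fun x => log 2 + log x) := by
      have h1 := strictConcaveOn_log_Ioi.concaveOn.subset
        (Set.Ioi_subset_Ioi (by norm_num : (0 : ℝ) ≤ 0.5)) (convex_Ioi (0.5 : ℝ))
      exact (concaveOn_const (log 2) (convex_Ioi (0.5 : ℝ))).add h1
    refine h0.congr ?_
    intro y hy
    have hy0 : (0 : ℝ) < y := lt_trans (by norm_num) (Set.mem_Ioi.1 hy)
    simp only
    rw [log_mul (by norm_num) hy0.ne']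
  have h : ConcaveOn ℝ (Set.Ioi 0.5) f := by
    apply ConcaveOn.sub
    · apply ConcaveOn.add
      · apply ConcaveOn.add
        · exact strictConcaveOn_log_Ioi.concaveOn.subset
            (Set.Ioi_subset_Ioi (by norm_num)) (convex_Ioi 0.5)
        · exact hlog2
      convert!
        ((strictConcaveOn_sqrt_mul_log_Ioi.concaveOn.comp_linearMap ((2 : ℝ) • LinearMap.id)))
        using 1
      ext x
      simp only [Set.mem_Ioi, Set.mem_preimage, LinearMap.smul_apply,
        LinearMap.id_coe, id_eq, smul_eq_mul]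
      rw [← mul_lt_mul_iff_right₀ (two_pos)]
      norm_num1
      rfl
    apply ConvexOn.smul
    · refine div_nonneg (log_nonneg (by norm_num1)) (by norm_num1)
    · exact convexOn_id (convex_Ioi (0.5 : ℝ))
  suffices ∃ x1 x2, 0.5 < x1 ∧ x1 < x2 ∧ x2 ≤ x ∧ 0 ≤ f x1 ∧ f x2 ≤ 0 by
    obtain ⟨x1, x2, h1, h2, h0, h3, h4⟩ := this
    exact (h.right_le_of_le_left'' h1 ((h1.trans h2).trans_le h0) h2 h0 (h4.trans h3)).trans h4
  refine ⟨18, 512, by norm_num1, by norm_num1, x_large, ?_, ?_⟩
  · have : √(2 * 18 : ℝ) = 6 := (sqrt_eq_iff_mul_self_eq_of_pos (by norm_num1)).mpr (by norm_num1)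
    rw [hf _ (by norm_num1), log_nonneg_iff (by positivity), this, one_le_div (by norm_num1)]
    norm_num1
  · have : √(2 * 512) = 32 :=
      (sqrt_eq_iff_mul_self_eq_of_pos (by norm_num1)).mpr (by norm_num1)
    rw [hf _ (by norm_num1), log_nonpos_iff (hf' _ (by norm_num1)).le, this,
        div_le_one (by positivity)]
    have e1 : ((2 : ℝ) * 512) ^ (32 : ℝ) = 2 ^ (320 : ℕ) := by
      rw [show (32 : ℝ) = ((32 : ℕ) : ℝ) by norm_num, rpow_natCast,
        show (2 : ℝ) * 512 = 2 ^ (10 : ℕ) by norm_num, ← pow_mul]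
    have e2 : (512 : ℝ) * (2 * 512 * 2 ^ (320 : ℕ)) = (2 : ℝ) ^ (339 : ℝ) := by
      rw [show (339 : ℝ) = ((339 : ℕ) : ℝ) by norm_num, rpow_natCast,
        show (2 : ℝ) * 512 = 2 ^ (10 : ℕ) by norm_num, show (512 : ℝ) = 2 ^ (9 : ℕ) by norm_num,
        ← pow_add, ← pow_add]
    have e3 : (4 : ℝ) ^ ((512 : ℝ) / 3) = 2 ^ ((2 : ℝ) * (512 / 3)) := by
      rw [rpow_mul (by norm_num), rpow_two]
      norm_num
    rw [e1, e2, e3]
    apply rpow_le_rpow_of_exponent_le
    · norm_num
    · norm_num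

open Nat

local notation "nsqrt" => Nat.sqrt

/-- The integer form of the inequality. -/
theorem main_inequality' {n : ℕ} (n_large : 512 ≤ n) :
    n * ((2 * n) * (2 * n) ^ nsqrt (2 * n)) * 4 ^ (2 * n / 3) ≤ 4 ^ n := by
  rw [← @cast_le ℝ]
  simp only [cast_mul, cast_pow, ← Real.rpow_natCast, cast_ofNat]
  refine _root_.trans ?_ (real_main_inequality' (by exact_mod_cast n_large))
  gcongr
  · have n2_pos : 0 < 2 * n := by positivity
    exact mod_cast n2_pos
  · exact_mod_cast Real.nat_sqrt_le_real_sqrt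
  · norm_num1
  · exact cast_div_le.trans (by norm_cast)

/-- The central binomial coefficient when `(n, 2n]` contains at most the prime `p₀`. -/
theorem centralBinom_le_of_one_prime (n : ℕ) (n_large : 2 < n) (p₀ : ℕ) (hp₀ : n < p₀)
    (hp₀' : p₀ ≤ 2 * n)
    (no_prime : ∀ p : ℕ, p.Prime → n < p → p ≠ p₀ → 2 * n < p) :
    centralBinom n ≤ (2 * n) * ((2 * n) ^ nsqrt (2 * n) * 4 ^ (2 * n / 3)) := by
  have n_pos : 0 < n := (Nat.zero_le _).trans_lt n_large
  have n2_pos : 1 ≤ 2 * n := mul_pos (zero_lt_two' ℕ) n_pos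
  let f x := x ^ n.centralBinom.factorization x
  have hsplit : n.centralBinom = f p₀ * ∏ x ∈ Finset.range (2 * n / 3 + 1), f x := by
    have hnot : p₀ ∉ Finset.range (2 * n / 3 + 1) := by
      rw [Finset.mem_range]
      omega
    rw [← Finset.prod_insert hnot]
    refine (Eq.trans ?_ n.prod_pow_factorization_centralBinom).symm
    apply Finset.prod_subset
    · intro x hx
      rw [Finset.mem_insert, Finset.mem_range] at hx
      rw [Finset.mem_range]
      rcases hx with rfl | hx
      · omega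
      · omega
    intro x hx h2x
    rw [Finset.mem_range, Nat.lt_succ_iff] at hx
    rw [Finset.mem_insert, Finset.mem_range, Nat.lt_succ_iff, not_or] at h2x
    obtain ⟨h2x1, h2x⟩ := h2x
    rw [not_le, div_lt_iff_lt_mul three_pos, mul_comm x] at h2x
    by_cases hpx : x.Prime
    · by_cases hxn : n < x
      · have := no_prime x hpx hxn h2x1
        omega
      · show x ^ _ = 1
        rw [factorization_centralBinom_of_two_mul_self_lt_three_mul n_large (by omega) h2x, Nat.pow_zero]
    · show x ^ _ = 1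
      rw [factorization_eq_zero_of_not_prime n.centralBinom hpx, Nat.pow_zero]
  let S := {p ∈ Finset.range (2 * n / 3 + 1) | Nat.Prime p}
  have hthis : ∏ x ∈ S, f x = ∏ x ∈ Finset.range (2 * n / 3 + 1), f x := by
    refine Finset.prod_filter_of_ne fun p _ h => ?_
    contrapose h; dsimp only [f]
    rw [factorization_eq_zero_of_not_prime n.centralBinom h, _root_.pow_zero]
  rw [hsplit, ← hthis, ← Finset.prod_filter_mul_prod_filter_not S (· ≤ nsqrt (2 * n))]
  apply mul_le_mul'
  · exact pow_factorization_choose_le (mul_pos two_pos n_pos)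
  apply mul_le_mul'
  · refine (Finset.prod_le_prod' fun p _ => (?_ : f p ≤ 2 * n)).trans ?_
    · exact pow_factorization_choose_le (mul_pos two_pos n_pos)
    have : (Finset.Icc 1 (nsqrt (2 * n))).card = nsqrt (2 * n) := by rw [card_Icc, Nat.add_sub_cancel]
    rw [Finset.prod_const]
    refine pow_right_mono₀ n2_pos ((Finset.card_le_card fun x hx => ?_).trans this.le)
    obtain ⟨h1, h2⟩ := Finset.mem_filter.1 hx
    exact Finset.mem_Icc.mpr ⟨(Finset.mem_filter.1 h1).2.one_lt.le, h2⟩
  · refine le_trans ?_ (primorial_le_four_pow (2 * n / 3))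
    refine (Finset.prod_le_prod' fun p hp => (?_ : f p ≤ p)).trans ?_
    · obtain ⟨h1, h2⟩ := Finset.mem_filter.1 hp
      refine (pow_right_mono₀ (Finset.mem_filter.1 h1).2.one_lt.le ?_).trans (pow_one p).le
      exact Nat.factorization_choose_le_one (sqrt_lt'.mp <| not_le.1 h2)
    refine Finset.prod_le_prod_of_subset_of_one_le' (Finset.filter_subset _ _) ?_
    exact fun p hp _ => (Finset.mem_filter.1 hp).2.one_lt.le

/-- Two primes in `(n, 2n]` for `n ≥ 512`. -/
theorem exists_two_primes_eventually (n : ℕ) (n_large : 512 ≤ n) :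
    ∃ p q : ℕ, p.Prime ∧ q.Prime ∧ n < p ∧ p < q ∧ q ≤ 2 * n := by
  obtain ⟨p₀, hp₀, h1, h2⟩ := Nat.exists_prime_lt_and_le_two_mul n (by omega)
  by_contra hcon
  have no_prime : ∀ p : ℕ, p.Prime → n < p → p ≠ p₀ → 2 * n < p := by
    intro p hp hnp hne
    by_contra hle
    have hle' : p ≤ 2 * n := by omega
    rcases lt_or_gt_of_ne hne with hlt | hlt
    · exact hcon ⟨p, p₀, hp, hp₀, hnp, hlt, h2⟩
    · exact hcon ⟨p₀, p, hp₀, hp, h1, hlt, hle'⟩
  have h3 : 4 ^ n < n * n.centralBinom :=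
    Nat.four_pow_lt_mul_centralBinom n (le_trans (by norm_num1) n_large)
  have h4 := centralBinom_le_of_one_prime n (by omega) p₀ h1 h2 no_prime
  have h5 := main_inequality' n_large
  have h6 : n * n.centralBinom ≤ n * ((2 * n) * ((2 * n) ^ nsqrt (2 * n) * 4 ^ (2 * n / 3))) :=
    Nat.mul_le_mul_left n h4
  have h7 : n * ((2 * n) * ((2 * n) ^ nsqrt (2 * n) * 4 ^ (2 * n / 3))) =
      n * ((2 * n) * (2 * n) ^ nsqrt (2 * n)) * 4 ^ (2 * n / 3) := by ring
  omega

private theorem two_primes_step {n : ℕ} (q : ℕ) {p p' : ℕ} (hp : p.Prime) (hp' : p'.Prime)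
    (hlt : p < p') (covering : p' ≤ 2 * q)
    (H : n < q → ∃ p q : ℕ, p.Prime ∧ q.Prime ∧ n < p ∧ p < q ∧ q ≤ 2 * n) (hn : n < p) :
    ∃ p q : ℕ, p.Prime ∧ q.Prime ∧ n < p ∧ p < q ∧ q ≤ 2 * n := by
  by_cases h : n < q
  · exact H h
  · exact ⟨p, p', hp, hp', hn, hlt, by omega⟩

/-- **Two primes in `(n, 2n]`** for all `n ≥ 6`. -/
theorem exists_two_primes (n : ℕ) (hn : 6 ≤ n) :
    ∃ p q : ℕ, p.Prime ∧ q.Prime ∧ n < p ∧ p < q ∧ q ≤ 2 * n := by
  rcases lt_or_ge 511 n with h | h
  · exact exists_two_primes_eventually n h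
  replace h : n < 547 := by omega
  revert h
  refine two_primes_step 317 (p := 547) (p' := 631) (by norm_num1) (by norm_num1) (by norm_num1) (by norm_num1) ?_
  refine two_primes_step 277 (p := 317) (p' := 547) (by norm_num1) (by norm_num1) (by norm_num1) (by norm_num1) ?_
  refine two_primes_step 163 (p := 277) (p' := 317) (by norm_num1) (by norm_num1) (by norm_num1) (by norm_num1) ?_
  refine two_primes_step 139 (p := 163) (p' := 277) (by norm_num1) (by norm_num1) (by norm_num1) (by norm_num1) ?_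
  refine two_primes_step 83 (p := 139) (p' := 163) (by norm_num1) (by norm_num1) (by norm_num1) (by norm_num1) ?_
  refine two_primes_step 73 (p := 83) (p' := 139) (by norm_num1) (by norm_num1) (by norm_num1) (by norm_num1) ?_
  refine two_primes_step 43 (p := 73) (p' := 83) (by norm_num1) (by norm_num1) (by norm_num1) (by norm_num1) ?_
  refine two_primes_step 37 (p := 43) (p' := 73) (by norm_num1) (by norm_num1) (by norm_num1) (by norm_num1) ?_
  refine two_primes_step 23 (p := 37) (p' := 43) (by norm_num1) (by norm_num1) (by norm_num1) (by norm_num1) ?_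
  refine two_primes_step 19 (p := 23) (p' := 37) (by norm_num1) (by norm_num1) (by norm_num1) (by norm_num1) ?_
  refine two_primes_step 13 (p := 19) (p' := 23) (by norm_num1) (by norm_num1) (by norm_num1) (by norm_num1) ?_
  refine two_primes_step 11 (p := 13) (p' := 19) (by norm_num1) (by norm_num1) (by norm_num1) (by norm_num1) ?_
  refine two_primes_step 7 (p := 11) (p' := 13) (by norm_num1) (by norm_num1) (by norm_num1) (by norm_num1) ?_
  refine two_primes_step 6 (p := 7) (p' := 11) (by norm_num1) (by norm_num1) (by norm_num1) (by norm_num1) ?_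
  intro h
  omega

end Cfsg.Agent.Lib.Basic.TwoPrimes
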